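import Mathlib.GroupTheory.Sylow
import Mathlib.GroupTheory.Nilpotent
import Mathlib.Algebra.BigOperators.Group.Finset.Basic
import Mathlib.Data.Complex.Basic

/-!
# Cancelling the normal chains of `p`-subgroups normalised by a `p`-element
-/

set_option autoImplicit false
set_option linter.unusedSectionVars false
set_option linter.style.haveILetI false

namespace CfsgLib.Chains

variable {G : Type*} [Group G]

/-- The stabilizer of a chain. -/
def chainStab (s : Finset (Subgroup G)) : Subgroup G := ⨅ Q ∈ s, Subgroup.normalizer ((Q : Subgroup G) : Set G)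

/-- The nonempty chains of nontrivial `p`-subgroups normal in their largest member. -/
def IsNormalChain (p : ℕ) (s : Finset (Subgroup G)) : Prop :=
  s.Nonempty ∧ (∀ Q ∈ s, ∀ R ∈ s, Q ≤ R ∨ R ≤ Q) ∧ (∀ Q ∈ s, Q ≠ ⊥ ∧ IsPGroup p Q) ∧
    ∃ T ∈ s, ∀ Q ∈ s, Q ≤ T ∧ T ≤ Subgroup.normalizer ((Q : Subgroup G) : Set G)

theorem mem_chainStab {s : Finset (Subgroup G)} {g : G} :
    g ∈ chainStab s ↔ ∀ Q ∈ s, g ∈ Subgroup.normalizer ((Q : Subgroup G) : Set G) := by
  simp only [chainStab, Subgroup.mem_iInf]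

open Classical in
/-- The largest member avoiding `x`. -/
noncomputable def low (x : G) (s : Finset (Subgroup G)) : Subgroup G := (s.filter fun Q => x ∉ Q).sup id

/-- The conjugates of `x` under the largest member. -/
def clo (x : G) (T : Subgroup G) : Subgroup G := Subgroup.closure {y | ∃ t ∈ T, t * x * t⁻¹ = y}

/-- The member to insert or to remove. -/
noncomputable def pivot (x : G) (s : Finset (Subgroup G)) : Subgroup G := low x s ⊔ clo x (s.sup id)

open Classical in
/-- Inserting or removing the pivot. -/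
noncomputable def toggle (x : G) (s : Finset (Subgroup G)) : Finset (Subgroup G) :=
  if pivot x s ∈ s then s.erase (pivot x s) else insert (pivot x s) s

theorem mem_clo (x : G) (T : Subgroup G) : x ∈ clo x T :=
  Subgroup.subset_closure ⟨1, T.one_mem, by group⟩

theorem clo_le {x : G} {T K : Subgroup G} (h : ∀ t ∈ T, t * x * t⁻¹ ∈ K) : clo x T ≤ K := by
  refine (Subgroup.closure_le _).2 ?_
  rintro y ⟨t, ht, rfl⟩
  exact h t ht

theorem conj_clo {x c : G} {T : Subgroup G} (hc : c ∈ Subgroup.normalizer (T : Set G)) (hcx : c * x * c⁻¹ ∈ clo x T)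
    {y : G} (hy : y ∈ clo x T) : c * y * c⁻¹ ∈ clo x T := by
  suffices h : clo x T ≤ (clo x T).comap (MulAut.conj c).toMonoidHom from h hy
  refine clo_le fun t ht => ?_
  show c * (t * x * t⁻¹) * c⁻¹ ∈ clo x T
  have ht' : c * t * c⁻¹ ∈ T := (Subgroup.mem_normalizer_iff.1 hc t).1 ht
  rw [show c * (t * x * t⁻¹) * c⁻¹ = (c * t * c⁻¹) * (c * x * c⁻¹) * (c * t * c⁻¹)⁻¹ by group]
  have hcl : clo x T ≤ (clo x T).comap (MulAut.conj (c * t * c⁻¹)).toMonoidHom := clo_le fun s hs => by
    show (c * t * c⁻¹) * (s * x * s⁻¹) * (c * t * c⁻¹)⁻¹ ∈ clo x T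
    exact Subgroup.subset_closure ⟨c * t * c⁻¹ * s, T.mul_mem ht' hs, by group⟩
  exact hcl hcx

variable {p : ℕ}

theorem isPGroup_sup_zpowers [Fact p.Prime] {T : Subgroup G} {x : G} (hT : IsPGroup p T) (hx : ∃ k : ℕ, orderOf x = p ^ k)
    (hxn : x ∈ Subgroup.normalizer (T : Set G)) : IsPGroup p ↥(T ⊔ Subgroup.zpowers x) := by
  obtain ⟨k, hk⟩ := hx
  exact hT.to_sup_of_normal_left' (IsPGroup.of_card (n := k) (by rw [Nat.card_zpowers, hk]))
    (Subgroup.zpowers_le.2 hxn)

/-- The Frattini argument for a normal closure in a `p`-group. -/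
theorem sup_zpowers_eq [Finite G] [Fact p.Prime] {A T : Subgroup G} {x : G} (hT : IsPGroup p T) (hAT : A ≤ T) (hx : x ∈ T)
    (h : A ⊔ clo x T = T) : A ⊔ Subgroup.zpowers x = T := by
  refine le_antisymm (sup_le hAT (Subgroup.zpowers_le.2 hx)) ?_
  by_contra hlt
  set K : Subgroup T := (A ⊔ Subgroup.zpowers x).subgroupOf T with hK
  obtain hK' | ⟨Mx, hMx, hKM⟩ := eq_top_or_exists_le_coatom K
  · exact hlt (fun t ht => by
      have : (⟨t, ht⟩ : T) ∈ K := by rw [hK']; exact Subgroup.mem_top _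
      exact this)
  haveI : Group.IsNilpotent T := hT.isNilpotent
  haveI : Mx.Normal := Subgroup.NormalizerCondition.normal_of_coatom Mx Group.normalizerCondition_of_isNilpotent hMx
  refine hMx.1 (top_le_iff.1 fun t _ => ?_)
  have hle : A ⊔ clo x T ≤ Mx.map T.subtype := by
    refine sup_le (fun a ha => ⟨⟨a, hAT ha⟩, hKM (Subgroup.mem_sup_left ha : a ∈ A ⊔ Subgroup.zpowers x), rfl⟩)
      (clo_le fun s hs => ⟨⟨s, hs⟩ * ⟨x, hx⟩ * ⟨s, hs⟩⁻¹, ?_, rfl⟩)
    exact Subgroup.Normal.conj_mem inferInstance _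
      (hKM (Subgroup.mem_sup_right (Subgroup.mem_zpowers x) : x ∈ A ⊔ Subgroup.zpowers x)) _
  rw [h] at hle
  obtain ⟨t', ht', he⟩ := hle t.2
  rwa [← Subtype.ext he]

section Props

variable {x : G} {s : Finset (Subgroup G)}

open Classical in
theorem low_mem (hch : ∀ Q ∈ s, ∀ R ∈ s, Q ≤ R ∨ R ≤ Q) :
    low x s = ⊥ ∨ (low x s ∈ s ∧ x ∉ low x s) := by
  rcases (s.filter fun Q => x ∉ Q).eq_empty_or_nonempty with h | h
  · exact Or.inl (by rw [low, h, Finset.sup_empty])
  · obtain ⟨Q, hQ, hmax⟩ := Finset.exists_maximal h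
    have : low x s = Q := by
      refine le_antisymm (Finset.sup_le fun R hR => ?_) (Finset.le_sup (f := id) hQ)
      rcases hch R (Finset.mem_filter.1 hR).1 Q (Finset.mem_filter.1 hQ).1 with h1 | h1
      · exact h1
      · exact hmax hR h1
    rw [this]
    exact Or.inr ⟨(Finset.mem_filter.1 hQ).1, (Finset.mem_filter.1 hQ).2⟩

open Classical in
theorem le_low {Q : Subgroup G} (hQ : Q ∈ s) (hx : x ∉ Q) : Q ≤ low x s :=
  Finset.le_sup (f := id) (Finset.mem_filter.2 ⟨hQ, hx⟩)

theorem mem_pivot : x ∈ pivot x s := Subgroup.mem_sup_right (mem_clo x _)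

theorem top_eq {T : Subgroup G} (hT : T ∈ s) (h : ∀ Q ∈ s, Q ≤ T) : s.sup id = T :=
  le_antisymm (Finset.sup_le h) (Finset.le_sup (f := id) hT)

/-- The elements of the stabilizer fixing `x` normalise the pivot. -/
theorem mem_normalizer_pivot [Finite G] (hch : ∀ Q ∈ s, ∀ R ∈ s, Q ≤ R ∨ R ≤ Q) {T : Subgroup G} (hT : T ∈ s)
    (hle : ∀ Q ∈ s, Q ≤ T) {c : G} (hc : c ∈ chainStab s) (hcx : c * x * c⁻¹ ∈ clo x T) :
    c ∈ Subgroup.normalizer ((pivot x s : Subgroup G) : Set G) := by
  have hmap : ∀ y ∈ pivot x s, c * y * c⁻¹ ∈ pivot x s := by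
    suffices h : pivot x s ≤ (pivot x s).comap (MulAut.conj c).toMonoidHom from fun y hy => h hy
    refine sup_le (fun a ha => ?_) (fun a ha => ?_)
    · refine Subgroup.mem_sup_left ?_
      rcases low_mem (x := x) hch with h | ⟨h, -⟩
      · rw [h, Subgroup.mem_bot] at ha
        subst ha
        show c * 1 * c⁻¹ ∈ low x s
        rw [mul_one, mul_inv_cancel]
        exact Subgroup.one_mem _
      · exact (Subgroup.mem_normalizer_iff.1 (mem_chainStab.1 hc _ h) a).1 ha
    · rw [top_eq hT hle] at ha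
      refine Subgroup.mem_sup_right ?_
      show c * a * c⁻¹ ∈ clo x (s.sup id)
      rw [top_eq hT hle]
      exact conj_clo (mem_chainStab.1 hc T hT) hcx ha
  have he : (pivot x s).map (MulAut.conj c).toMonoidHom = pivot x s := by
    refine Subgroup.eq_of_le_of_card_ge ?_ (le_of_eq ?_)
    · rintro _ ⟨y, hy, rfl⟩
      exact hmap y hy
    · rw [Subgroup.card_map_of_injective (MulAut.conj c).injective]
  refine Subgroup.mem_normalizer_iff.2 fun y => ⟨hmap y, fun hy => ?_⟩
  rw [← he] at hy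
  obtain ⟨z, hz, hze⟩ := hy
  rwa [← (MulAut.conj c).injective hze]

variable [Finite G] [Fact p.Prime] (hs : IsNormalChain p s) (hx : x ∈ chainStab s) (hxp : ∃ k : ℕ, orderOf x = p ^ k)
  (hx1 : x ≠ 1) (hne : s ≠ {Subgroup.zpowers x})
include hs hx

theorem pivot_le_of_mem {Q : Subgroup G} (hQ : Q ∈ s) (hxQ : x ∈ Q) : pivot x s ≤ Q := by
  obtain ⟨-, hch, -, T, hT, hTop⟩ := hs
  refine sup_le ?_ (clo_le fun t ht => ?_)
  · rcases low_mem (x := x) hch with h | ⟨h, hxl⟩
    · rw [h]; exact bot_le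
    · rcases hch _ h Q hQ with h1 | h1
      · exact h1
      · exact absurd (h1 hxQ) hxl
  · rw [top_eq hT fun R hR => (hTop R hR).1] at ht
    exact (Subgroup.mem_normalizer_iff.1 ((hTop Q hQ).2 ht) x).1 hxQ

omit hx in
theorem le_pivot_of_notMem {Q : Subgroup G} (hQ : Q ∈ s) (hxQ : x ∉ Q) : Q ≤ pivot x s :=
  (le_low hQ hxQ).trans le_sup_left

theorem pivot_eq_of_notMem {T : Subgroup G} (hT : T ∈ s) (hle : ∀ Q ∈ s, Q ≤ T) (hxT : x ∉ T) :
    pivot x s = T ⊔ Subgroup.zpowers x := by
  classical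
  refine le_antisymm (sup_le (Finset.sup_le fun Q hQ => ?_) (clo_le fun t ht => ?_))
    (sup_le (le_pivot_of_notMem hs hT hxT) (Subgroup.zpowers_le.2 mem_pivot))
  · exact (hle Q (Finset.mem_filter.1 hQ).1).trans le_sup_left
  · rw [top_eq hT hle] at ht
    exact Subgroup.mul_mem _ (Subgroup.mul_mem _ (Subgroup.mem_sup_left ht)
      (Subgroup.mem_sup_right (Subgroup.mem_zpowers x))) (Subgroup.inv_mem _ (Subgroup.mem_sup_left ht))

include hxp hx1 in
theorem pivot_props : pivot x s ≠ ⊥ ∧ IsPGroup p (pivot x s) := by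
  refine ⟨fun h => hx1 (Subgroup.mem_bot.1 (h ▸ mem_pivot)), ?_⟩
  obtain ⟨hne', hch, hmem, T, hT, hTop⟩ := id hs
  by_cases hxT : x ∈ T
  · exact (hmem T hT).2.to_le (pivot_le_of_mem hs hx hT hxT)
  · rw [pivot_eq_of_notMem hs hx hT (fun R hR => (hTop R hR).1) hxT]
    exact isPGroup_sup_zpowers (hmem T hT).2 hxp (mem_chainStab.1 hx T hT)

theorem conj_mem_pivot_top {T : Subgroup G} (hT : T ∈ s) (hle : ∀ Q ∈ s, Q ≤ T) :
    x ∈ Subgroup.normalizer ((pivot x s : Subgroup G) : Set G) :=
  mem_normalizer_pivot hs.2.1 hT hle hx (by rw [mul_inv_cancel_right]; exact mem_clo x T)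

include hxp hx1 hne in
open Classical in
/-- The toggled chain. -/
theorem toggle_spec : IsNormalChain p (toggle x s) ∧ x ∈ chainStab (toggle x s) ∧
    pivot x (toggle x s) = pivot x s := by
  obtain ⟨hne', hch, hmem, T, hT, hTop⟩ := id hs
  have hle : ∀ Q ∈ s, Q ≤ T := fun Q hQ => (hTop Q hQ).1
  have htop := top_eq hT hle
  have hxN : x ∈ pivot x s := mem_pivot
  have hlow' : ∀ s' : Finset (Subgroup G), (∀ Q, x ∉ Q → (Q ∈ s' ↔ Q ∈ s)) → low x s' = low x s := fun s' h => by
    unfold low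
    congr 1
    ext Q
    simp only [Finset.mem_filter]
    exact ⟨fun hQ => ⟨(h Q hQ.2).1 hQ.1, hQ.2⟩, fun hQ => ⟨(h Q hQ.2).2 hQ.1, hQ.2⟩⟩
  have hxn := conj_mem_pivot_top hs hx hT hle
  unfold toggle
  split_ifs with hN
  · have hlow := hlow' (s.erase (pivot x s)) fun Q hQ => by
      rw [Finset.mem_erase]
      exact ⟨fun h => h.2, fun h => ⟨fun e => hQ (e ▸ hxN), h⟩⟩
    by_cases hNT : pivot x s = T
    · have hxT : x ∈ T := hNT ▸ hxN
      have hA : low x s ≤ T := le_sup_left.trans hNT.le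
      have hTeq : low x s ⊔ Subgroup.zpowers x = T :=
        sup_zpowers_eq (hmem T hT).2 hA hxT (by have := hNT; rwa [pivot, htop] at this)
      rcases low_mem (x := x) hch with hl | ⟨hl, hxl⟩
      · refine absurd (Finset.eq_singleton_iff_unique_mem.2 ⟨?_, fun Q hQ => ?_⟩) hne
        · rw [hl, bot_sup_eq] at hTeq
          rw [hTeq]; exact hT
        · rw [hl, bot_sup_eq] at hTeq
          by_cases hxQ : x ∈ Q
          · exact le_antisymm ((hle Q hQ).trans hTeq.ge) (Subgroup.zpowers_le.2 hxQ)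
          · exact absurd (le_bot_iff.1 ((le_low hQ hxQ).trans hl.le)) (hmem Q hQ).1
      · have hmax : ∀ Q ∈ s.erase (pivot x s), Q ≤ low x s := by
          intro Q hQ
          obtain ⟨hQne, hQs⟩ := Finset.mem_erase.1 hQ
          refine le_low hQs fun hxQ => hQne (le_antisymm ?_ (pivot_le_of_mem hs hx hQs hxQ))
          rw [hNT]; exact hle Q hQs
        have hlmem : low x s ∈ s.erase (pivot x s) := Finset.mem_erase.2 ⟨fun e => hxl (e ▸ hxN), hl⟩
        refine ⟨⟨⟨_, hlmem⟩, fun Q hQ R hR => hch Q (Finset.mem_erase.1 hQ).2 R (Finset.mem_erase.1 hR).2,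
          fun Q hQ => hmem Q (Finset.mem_erase.1 hQ).2, low x s, hlmem,
          fun Q hQ => ⟨hmax Q hQ, hA.trans (hTop Q (Finset.mem_erase.1 hQ).2).2⟩⟩,
          mem_chainStab.2 fun Q hQ => mem_chainStab.1 hx Q (Finset.mem_erase.1 hQ).2, ?_⟩
        rw [hNT, ← hTeq]
        unfold pivot
        rw [hNT] at hlow hmax hlmem
        rw [hTeq, hlow, top_eq hlmem hmax]
        refine le_antisymm (sup_le hA (clo_le fun t ht => ?_)) ?_
        · exact T.mul_mem (T.mul_mem (hA ht) hxT) (T.inv_mem (hA ht))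
        · rw [← hTeq]
          exact sup_le le_sup_left (Subgroup.zpowers_le.2 (Subgroup.mem_sup_right (mem_clo x _)))
    · have hTmem : T ∈ s.erase (pivot x s) := Finset.mem_erase.2 ⟨fun e => hNT e.symm, hT⟩
      refine ⟨⟨⟨T, hTmem⟩, fun Q hQ R hR => hch Q (Finset.mem_erase.1 hQ).2 R (Finset.mem_erase.1 hR).2,
          fun Q hQ => hmem Q (Finset.mem_erase.1 hQ).2, T, hTmem, fun Q hQ => hTop Q (Finset.mem_erase.1 hQ).2⟩,
          mem_chainStab.2 fun Q hQ => mem_chainStab.1 hx Q (Finset.mem_erase.1 hQ).2, ?_⟩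
      show low x _ ⊔ clo x _ = low x s ⊔ clo x (s.sup id)
      rw [hlow, htop, top_eq hTmem fun Q hQ => hle Q (Finset.mem_erase.1 hQ).2]
  · have hlow := hlow' (insert (pivot x s) s) fun Q hQ => by
      rw [Finset.mem_insert]
      exact ⟨fun h => h.resolve_left fun e => hQ (e ▸ hxN), Or.inr⟩
    have hcmp : ∀ Q ∈ s, Q ≤ pivot x s ∨ pivot x s ≤ Q := fun Q hQ => by
      by_cases hxQ : x ∈ Q
      · exact Or.inr (pivot_le_of_mem hs hx hQ hxQ)
      · exact Or.inl (le_pivot_of_notMem hs hQ hxQ)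
    have hch' : ∀ Q ∈ insert (pivot x s) s, ∀ R ∈ insert (pivot x s) s, Q ≤ R ∨ R ≤ Q := by
      intro Q hQ R hR
      rcases Finset.mem_insert.1 hQ with rfl | hQ' <;> rcases Finset.mem_insert.1 hR with rfl | hR'
      · exact Or.inl le_rfl
      · exact (hcmp R hR').symm
      · exact hcmp Q hQ'
      · exact hch Q hQ' R hR'
    have hmem' : ∀ Q ∈ insert (pivot x s) s, Q ≠ ⊥ ∧ IsPGroup p Q := by
      intro Q hQ
      rcases Finset.mem_insert.1 hQ with rfl | hQ'
      · exact pivot_props hs hx hxp hx1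
      · exact hmem Q hQ'
    refine ⟨?_, mem_chainStab.2 fun Q hQ => ?_, ?_⟩
    · by_cases hxT : x ∈ T
      · refine ⟨Finset.insert_nonempty _ _, hch', hmem', T, Finset.mem_insert_of_mem hT, fun Q hQ => ?_⟩
        rcases Finset.mem_insert.1 hQ with rfl | hQ'
        · refine ⟨pivot_le_of_mem hs hx hT hxT, fun t ht => mem_normalizer_pivot hch hT hle
            (mem_chainStab.2 fun R hR => (hTop R hR).2 ht) (Subgroup.subset_closure ⟨t, ht, rfl⟩)⟩
        · exact hTop Q hQ'
      · have hpe := pivot_eq_of_notMem hs hx hT hle hxT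
        refine ⟨Finset.insert_nonempty _ _, hch', hmem', pivot x s, Finset.mem_insert_self _ _, fun Q hQ => ?_⟩
        rcases Finset.mem_insert.1 hQ with rfl | hQ'
        · exact ⟨le_rfl, Subgroup.le_normalizer⟩
        · refine ⟨le_pivot_of_notMem hs hQ' fun hxQ => hxT (hle Q hQ' hxQ), ?_⟩
          rw [hpe]
          exact sup_le (hTop Q hQ').2 (Subgroup.zpowers_le.2 (mem_chainStab.1 hx Q hQ'))
    · rcases Finset.mem_insert.1 hQ with rfl | hQ'
      · exact hxn
      · exact mem_chainStab.1 hx Q hQ'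
    · show low x _ ⊔ clo x ((insert (pivot x s) s).sup id) = pivot x s
      rw [hlow, Finset.sup_insert, htop]
      show low x s ⊔ clo x (pivot x s ⊔ T) = pivot x s
      by_cases hxT : x ∈ T
      · rw [sup_eq_right.2 (pivot_le_of_mem hs hx hT hxT), pivot, htop]
      · have hpe := pivot_eq_of_notMem hs hx hT hle hxT
        rw [sup_eq_left.2 (le_pivot_of_notMem hs hT hxT)]
        refine le_antisymm (sup_le le_sup_left (clo_le fun t ht =>
          Subgroup.mul_mem _ (Subgroup.mul_mem _ ht hxN) (Subgroup.inv_mem _ ht))) ?_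
        rw [hpe]
        exact sup_le ((le_low hT hxT).trans le_sup_left)
          (Subgroup.zpowers_le.2 (Subgroup.mem_sup_right (mem_clo x _)))

theorem chainStab_insert_pivot [DecidableEq (Subgroup G)] :
    chainStab (insert (pivot x s) s) ⊓ Subgroup.centralizer ({x} : Set G) =
      chainStab s ⊓ Subgroup.centralizer ({x} : Set G) := by
  obtain ⟨-, hch, -, T, hT, hTop⟩ := id hs
  refine le_antisymm (inf_le_inf_right _ fun c hc => mem_chainStab.2 fun Q hQ =>
    mem_chainStab.1 hc Q (Finset.mem_insert_of_mem hQ)) fun c hc => ⟨mem_chainStab.2 fun Q hQ => ?_, hc.2⟩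
  rcases Finset.mem_insert.1 hQ with rfl | hQ'
  · refine mem_normalizer_pivot hch hT (fun R hR => (hTop R hR).1) hc.1 ?_
    rw [show c * x * c⁻¹ = x by rw [Subgroup.mem_centralizer_singleton_iff.1 hc.2, mul_inv_cancel_right]]
    exact mem_clo x T
  · exact mem_chainStab.1 hc.1 Q hQ'

end Props

variable [Finite G] [Fact p.Prime]

/-- The sign of a chain. -/
def sgn (s : Finset (Subgroup G)) : ℂ := (-1) ^ (s.card - 1)

open Classical in
/-- The alternating sum over the chains normalised by a `p`-element. -/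
theorem sum_chains {x : G} (hxp : ∃ k : ℕ, orderOf x = p ^ k) (hx1 : x ≠ 1) (F : Subgroup G → ℂ)
    (S : Finset (Finset (Subgroup G))) (hS : ∀ s, s ∈ S ↔ IsNormalChain p s ∧ x ∈ chainStab s) :
    ∑ s ∈ S, sgn s * F (chainStab s ⊓ Subgroup.centralizer ({x} : Set G)) =
      F (Subgroup.centralizer ({x} : Set G)) := by
  set R := Subgroup.zpowers x with hR
  have hRmem : ({R} : Finset (Subgroup G)) ∈ S := by
    refine (hS _).2 ⟨⟨Finset.singleton_nonempty _, ?_, ?_, R, Finset.mem_singleton_self _, ?_⟩, mem_chainStab.2 ?_⟩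
    · intro Q hQ T hT
      exact Or.inl (by rw [Finset.mem_singleton.1 hQ, Finset.mem_singleton.1 hT])
    · intro Q hQ
      rw [Finset.mem_singleton.1 hQ]
      obtain ⟨k, hk⟩ := hxp
      exact ⟨fun h => hx1 (Subgroup.zpowers_eq_bot.1 h), IsPGroup.of_card (n := k) (by rw [Nat.card_zpowers, hk])⟩
    · intro Q hQ
      rw [Finset.mem_singleton.1 hQ]
      exact ⟨le_rfl, Subgroup.le_normalizer⟩
    · intro Q hQ
      rw [Finset.mem_singleton.1 hQ]
      exact Subgroup.le_normalizer (Subgroup.mem_zpowers x)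
  rw [← Finset.add_sum_erase S _ hRmem]
  have hzero : ∑ s ∈ S.erase {R}, sgn s * F (chainStab s ⊓ Subgroup.centralizer ({x} : Set G)) = 0 := by
    refine Finset.sum_involution (fun s _ => toggle x s) (fun s hs => ?_) (fun s hs _ => ?_) (fun s hs => ?_)
      (fun s hs => ?_)
    · obtain ⟨hne, hsS⟩ := Finset.mem_erase.1 hs
      obtain ⟨hc, hxc⟩ := (hS s).1 hsS
      obtain ⟨hc', hxc', hpiv⟩ := toggle_spec hc hxc hxp hx1 hne
      have hins := chainStab_insert_pivot (p := p) hc' hxc'
      have hins0 := chainStab_insert_pivot (p := p) hc hxc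
      rw [hpiv] at hins
      by_cases hN : pivot x s ∈ s
      · have he : toggle x s = s.erase (pivot x s) := by rw [toggle, if_pos hN]
        rw [he] at hins hc' ⊢
        rw [Finset.insert_erase hN] at hins
        rw [hins, sgn, sgn, Finset.card_erase_of_mem hN]
        have h2 := hc'.1.card_pos
        rw [Finset.card_erase_of_mem hN] at h2
        obtain ⟨n, hn⟩ : ∃ n, s.card = n + 2 := ⟨s.card - 2, by omega⟩
        rw [hn, show n + 2 - 1 - 1 = n by omega, show n + 2 - 1 = n + 1 by omega, pow_succ]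
        ring
      · have he : toggle x s = insert (pivot x s) s := by rw [toggle, if_neg hN]
        rw [he, hins0, sgn, sgn, Finset.card_insert_of_notMem hN]
        obtain ⟨n, hn⟩ : ∃ n, s.card = n + 1 := ⟨s.card - 1, by have := hc.1.card_pos; omega⟩
        rw [hn, show n + 1 + 1 - 1 = n + 1 by omega, show n + 1 - 1 = n by omega, pow_succ]
        ring
    · intro he
      unfold toggle at he
      split_ifs at he with hN
      · exact (Finset.notMem_erase (pivot x s) s) (he.symm ▸ hN)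
      · refine hN ?_
        have hmem := Finset.mem_insert_self (pivot x s) s
        exact he.le hmem
    · obtain ⟨hne, hsS⟩ := Finset.mem_erase.1 hs
      obtain ⟨hc, hxc⟩ := (hS s).1 hsS
      obtain ⟨hc', hxc', hpiv⟩ := toggle_spec hc hxc hxp hx1 hne
      refine Finset.mem_erase.2 ⟨fun he => ?_, (hS _).2 ⟨hc', hxc'⟩⟩
      have h1 : pivot x ({R} : Finset (Subgroup G)) = R := by
        refine le_antisymm (sup_le (Finset.sup_le fun Q hQ => ?_) (clo_le fun t ht => ?_))
          (Subgroup.zpowers_le.2 mem_pivot)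
        · exact (Finset.mem_singleton.1 (Finset.mem_filter.1 hQ).1).le
        · simp only [Finset.sup_singleton, id_eq] at ht
          exact R.mul_mem (R.mul_mem ht (Subgroup.mem_zpowers x)) (R.inv_mem ht)
      rw [he, h1] at hpiv
      unfold toggle at he
      rw [← hpiv] at he
      split_ifs at he with hN
      · exact Finset.notMem_erase R s (he.symm ▸ Finset.mem_singleton_self R)
      · have hsub : s ⊆ {R} := he ▸ Finset.subset_insert R s
        rcases Finset.subset_singleton_iff.1 hsub with h | h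
        · exact hc.1.ne_empty h
        · exact hne h
    · obtain ⟨hne, hsS⟩ := Finset.mem_erase.1 hs
      obtain ⟨hc, hxc⟩ := (hS s).1 hsS
      obtain ⟨-, -, hpiv⟩ := toggle_spec hc hxc hxp hx1 hne
      show toggle x (toggle x s) = s
      by_cases hN : pivot x s ∈ s
      · have e : toggle x s = s.erase (pivot x s) := by rw [toggle, if_pos hN]
        rw [e] at hpiv ⊢
        rw [toggle, hpiv, if_neg (Finset.notMem_erase _ _), Finset.insert_erase hN]
      · have e : toggle x s = insert (pivot x s) s := by rw [toggle, if_neg hN]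
        rw [e] at hpiv ⊢
        rw [toggle, hpiv, if_pos (Finset.mem_insert_self _ _), Finset.erase_insert hN]
  rw [hzero, add_zero, sgn, Finset.card_singleton]
  norm_num
  congr 1
  refine inf_eq_right.2 fun c hc => mem_chainStab.2 fun Q hQ => ?_
  rw [Finset.mem_singleton.1 hQ]
  refine (Subgroup.centralizer_le_normalizer (s := (R : Set G))) (Subgroup.mem_centralizer_iff.2 fun q hq => ?_)
  have hle : R ≤ Subgroup.centralizer ({c} : Set G) := Subgroup.zpowers_le.2
    (Subgroup.mem_centralizer_singleton_iff.2 (Subgroup.mem_centralizer_singleton_iff.1 hc).symm)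
  exact Subgroup.mem_centralizer_singleton_iff.1 (hle hq)

end CfsgLib.Chains
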