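import Cfsg.Agent.Blocks.Rank
import Cfsg.Agent.Blocks.FirstMain
import Cfsg.Agent.Blocks.InducedDefect
import Cfsg.Agent.Blocks.LocalInduction
import Cfsg.Agent.Blocks.Chains.Pairing

/-!
# Characters against Brauer characters on the singular elements of the chain stabilizers
-/

set_option autoImplicit false
set_option linter.unusedSectionVars false
set_option linter.style.haveILetI false

namespace CfsgLib.Chains

open Cfsg CfsgLib.Blocks CfsgLib.CharBasics CfsgLib.ZStar CfsgLib.Clifford
open scoped ComplexConjugate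

universe u

variable {p : ℕ} {M : Ideal AlgInt}

theorem ite_sum_out {ι : Type*} (s : Finset ι) (P : Prop) [Decidable P] (g : ι → ℂ) :
    (if P then ∑ i ∈ s, g i else 0) = ∑ i ∈ s, if P then g i else 0 := by
  split_ifs <;> simp

section Union

variable {A : Type u} [Group A] [Fintype A] (hM : IsPModular p M) (U : Set (IrrCharacter A))
  (hU : ∀ f, IsPBlock M f → ∀ χ ∈ f, χ ∈ U → f ⊆ U)
include hM hU

theorem kernel_union [Fintype (IrrCharacter A)] [∀ f : Set (IrrCharacter A), Decidable (f ⊆ U)] (y z : A) :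
    blockKernel U y z = ∑ f ∈ (blockFinset M A).filter (· ⊆ U), blockKernel f y z := by
  classical
  simp only [blockKernel_eq]
  conv_rhs => arg 2; ext f; rw [Finset.sum_filter]
  rw [Finset.sum_filter, Finset.sum_comm (s := Finset.filter _ _)]
  refine Finset.sum_congr rfl fun χ _ => ?_
  by_cases h : χ ∈ U
  · rw [if_pos h, Finset.sum_eq_single_of_mem (blockOf M (χ : A → ℂ)) (Finset.mem_filter.2
      ⟨mem_blockFinset.2 (isPBlock_blockOf M χ), hU _ (isPBlock_blockOf M χ) χ (mem_blockOf_self hM χ) h⟩)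
      (fun f hf hne => if_neg fun h' => hne (IsPBlock.eq_blockOf hM (mem_blockFinset.1 (Finset.mem_filter.1 hf).1) h')),
      if_pos (mem_blockOf_self hM χ)]
  · rw [if_neg h]
    exact (Finset.sum_eq_zero fun f hf => if_neg fun h' => h (((Finset.mem_filter.1 hf).2 : f ⊆ U) h')).symm

/-- The rank of a union of blocks as a trace. -/
theorem sum_kernel_regular :
    ∑ y : A, (if p ∣ orderOf y then 0 else blockKernel U y y) = (Nat.card A : ℂ) * blockRank p U := by
  classical
  haveI : Fintype (IrrCharacter A) := @Fintype.ofFinite _ finite_irrCharacter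
  have hK : ∀ y z : A, ¬ p ∣ orderOf y → p ∣ orderOf z → blockKernel U y z = 0 := fun y z hy hz => by
    rw [kernel_union hM U hU]
    exact Finset.sum_eq_zero fun f hf => blockKernel_eq_zero hM (mem_blockFinset.1 (Finset.mem_filter.1 hf).1) hy hz
  have hA0 : (Nat.card A : ℂ) ≠ 0 := Nat.cast_ne_zero.2 Nat.card_pos.ne'
  set A' : Matrix A A ℂ := fun y z => if p ∣ orderOf y then 0 else (Nat.card A : ℂ)⁻¹ * blockKernel U y z with hA
  set W := Submodule.span ℂ ((fun χ : IrrCharacter A => pRegularPart p (χ : A → ℂ)) '' U) with hW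
  have hmul : ∀ (v : A → ℂ) (y : A), Matrix.toLin' A' v y = ∑ z : A, A' y z * v z := fun v y => by
    rw [Matrix.toLin'_apply]; rfl
  have hexp : ∀ v : A → ℂ, Matrix.toLin' A' v =
      ∑ ξ ∈ Finset.univ.filter (· ∈ U), classInner v (ξ : A → ℂ) • pRegularPart p (ξ : A → ℂ) := by
    intro v
    funext y
    rw [hmul]
    simp only [hA, Finset.sum_apply, Pi.smul_apply, smul_eq_mul, pRegularPart_apply]
    by_cases hy : p ∣ orderOf y
    · simp [hy]
    · simp only [hy, if_false]
      have h := blockPart_eq_kernel U v y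
      rw [ZStar.blockPart_apply, ← Finset.sum_filter] at h
      rw [h, Finset.mul_sum]
      exact Finset.sum_congr rfl fun z _ => by ring
  have hproj : LinearMap.IsProj W (Matrix.toLin' A') := by
    refine ⟨fun v => ?_, fun v hv => ?_⟩
    · rw [hexp]
      exact Submodule.sum_mem _ fun ξ hξ =>
        Submodule.smul_mem _ _ (Submodule.subset_span ⟨ξ, (Finset.mem_filter.1 hξ).2, rfl⟩)
    · induction hv using Submodule.span_induction with
      | mem v hv =>
        obtain ⟨ξ, hξ, rfl⟩ := hv
        funext y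
        rw [hmul]
        simp only [hA, pRegularPart_apply]
        by_cases hy : p ∣ orderOf y
        · simp [hy]
        · simp only [hy, if_false]
          have hK' : ∑ z : A, blockKernel U y z * (ξ : A → ℂ) z = (Nat.card A : ℂ) * (ξ : A → ℂ) y := by
            simp only [blockKernel_eq, Finset.sum_mul]
            rw [Finset.sum_comm, Finset.sum_eq_single ξ]
            · rw [Finset.sum_congr rfl (g := fun z => (ξ : A → ℂ) y * ((ξ : A → ℂ) z * conj ((ξ : A → ℂ) z)))
                (fun z _ => by ring), ← Finset.mul_sum, sum_mul_conj, if_pos rfl, mul_comm]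
            · intro η _ hne
              rw [Finset.sum_congr rfl (g := fun z => (η : A → ℂ) y * ((ξ : A → ℂ) z * conj ((η : A → ℂ) z)))
                (fun z _ => by ring), ← Finset.mul_sum, sum_mul_conj, if_neg (Ne.symm hne), mul_zero]
            · exact fun h => absurd (Finset.mem_filter.2 ⟨Finset.mem_univ _, hξ⟩) h
          rw [Finset.sum_congr rfl (g := fun z => (Nat.card A : ℂ)⁻¹ * (blockKernel U y z * (ξ : A → ℂ) z))
            (fun z _ => ?_), ← Finset.mul_sum, hK', inv_mul_cancel_left₀ hA0]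
          split_ifs with hz
          · rw [hK y z hy hz]; ring
          · ring
      | zero => exact map_zero _
      | add v w _ _ hv hw => rw [map_add, hv, hw]
      | smul c v _ hv => rw [map_smul, hv]
  have h := hproj.trace
  rw [Matrix.trace_toLin'_eq] at h
  rw [blockRank, ← hW, ← h, Matrix.trace, Finset.mul_sum]
  refine Finset.sum_congr rfl fun y _ => ?_
  rw [Matrix.diag_apply]
  simp only [hA]
  split_ifs
  · rw [mul_zero]
  · rw [mul_inv_cancel_left₀ hA0]

/-- Characters against Brauer characters. -/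
theorem sum_kernel_singular :
    ∑ y : A, (if p ∣ orderOf y then blockKernel U y y else 0) =
      (Nat.card A : ℂ) * ((Nat.card U : ℂ) - (blockRank p U : ℂ)) := by
  classical
  haveI : Fintype (IrrCharacter A) := @Fintype.ofFinite _ finite_irrCharacter
  have h1 : ∑ y : A, blockKernel U y y = (Nat.card A : ℂ) * (Nat.card U : ℂ) := by
    simp only [blockKernel_eq]
    rw [Finset.sum_comm, Finset.sum_congr rfl fun χ _ => (sum_mul_conj χ χ).trans (if_pos rfl),
      Finset.sum_const, nsmul_eq_mul, mul_comm, Nat.card_eq_fintype_card (α := U), ← Fintype.card_subtype]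
  rw [mul_sub, ← h1, ← sum_kernel_regular hM U hU, ← Finset.sum_sub_distrib]
  exact Finset.sum_congr rfl fun y _ => by split_ifs <;> simp

open Classical in
/-- A section of a union of blocks. -/
theorem kernel_section {x : A} (hx : ∃ k : ℕ, orderOf x = p ^ k)
    [Fintype (Subgroup.centralizer ({x} : Set A))] [Fintype (IrrCharacter (Subgroup.centralizer ({x} : Set A)))]
    (w : IrrCharacter (Subgroup.centralizer ({x} : Set A)) → Prop)
    (hw : ∀ ξ : IrrCharacter (Subgroup.centralizer ({x} : Set A)), ∀ f, IsInducedBlock M (Subgroup.centralizer ({x} : Set A)) (blockOf M (ξ : _ → ℂ)) f → (w ξ ↔ f ⊆ U))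
    {y : Subgroup.centralizer ({x} : Set A)} (hy : ¬ p ∣ orderOf y) :
    blockKernel U (x * y) (x * y) = ∑ ξ : IrrCharacter (Subgroup.centralizer ({x} : Set A)),
      if w ξ then (ξ : _ → ℂ) y * conj ((ξ : _ → ℂ) y) else 0 := by
  haveI : Fintype (IrrCharacter A) := @Fintype.ofFinite _ finite_irrCharacter
  rw [kernel_union hM U hU]
  have h1 : ∀ f ∈ (blockFinset M A).filter (· ⊆ U), blockKernel f (x * (y : A)) (x * (y : A)) =
      ∑ β ∈ (blockFinset M (Subgroup.centralizer ({x} : Set A))).filter (fun β => IsInducedBlock M (Subgroup.centralizer ({x} : Set A)) β f), blockKernel β y y := by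
    intro f hf
    rw [blockKernel_eq, Finset.sum_filter]
    exact sum_sq_section hM hx (mem_blockFinset.1 (Finset.mem_filter.1 hf).1) hy
  rw [Finset.sum_congr rfl h1]
  simp only [blockKernel_eq, Finset.sum_filter]
  simp only [ite_sum_out]
  rw [Finset.sum_congr rfl fun f _ => Finset.sum_comm, Finset.sum_comm]
  refine Finset.sum_congr rfl fun ξ _ => ?_
  set β₀ := blockOf M (ξ : (Subgroup.centralizer ({x} : Set A)) → ℂ) with hβ₀
  have hβ₀b : IsPBlock M β₀ := isPBlock_blockOf M ξ
  obtain ⟨f₀, hf₀⟩ : ∃ f₀, IsInducedBlock M (Subgroup.centralizer ({x} : Set A)) β₀ f₀ := by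
    by_contra hcon
    push Not at hcon
    refine not_memLocalIdeal_one hM ?_
    rw [← omega_one ξ.2, ← ZStar.res_one (Subgroup.centralizer ({x} : Set A)), ← sum_blockElt_eq_one (M := M) hM, ZStar.res_sum, ZStar.omega_sum]
    refine memLocalIdeal_sum hM _ fun f hf => by_contra fun hns => hcon f ?_
    have hH : ∀ g, g ∈ (Subgroup.centralizer ({x} : Set A)) ↔ ∀ q ∈ Subgroup.zpowers x, q * g = g * q := fun g => by
      rw [← Subgroup.centralizer_closure, ← Subgroup.zpowers_eq_closure]
      exact Subgroup.mem_centralizer_iff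
    exact isInducedBlock_of_not_small hM (ZStar.isPGroup_zpowers hM.1 hx) hH hβ₀b (mem_blockFinset.1 hf)
      (mem_blockOf_self hM ξ) hns
  rw [Finset.sum_eq_single_of_mem f₀ (mem_blockFinset.2 hf₀.2.1)]
  · rw [Finset.sum_eq_single_of_mem β₀ (mem_blockFinset.2 hβ₀b) (fun β hβ hne => by
      rw [if_neg fun h => hne (IsPBlock.eq_blockOf hM (mem_blockFinset.1 hβ) h)]; simp),
      if_pos (mem_blockOf_self hM ξ), if_pos hf₀]
    exact if_congr (hw ξ f₀ hf₀).symm rfl rfl
  · intro f hf hne
    refine Finset.sum_eq_zero fun β hβ => ?_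
    by_cases hξβ : ξ ∈ β
    · obtain rfl := IsPBlock.eq_blockOf hM (mem_blockFinset.1 hβ) hξβ
      rw [if_neg (fun h : IsInducedBlock M (Subgroup.centralizer ({x} : Set A)) β₀ f => hne (induced_block_unique hM h hf₀))]
      simp
    · rw [if_neg hξβ]; simp

end Union

variable {G : Type u} [Group G] [Fintype G] (hM : IsPModular p M)

/-- A character of a subgroup does not kill the idempotent of the block. -/
def NS (M : Ideal AlgInt) (b : Set (IrrCharacter G)) (K : Subgroup G) [Fintype K] (ξ : IrrCharacter K) : Prop :=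
  ¬ MemLocalIdeal M (omega (ξ : K → ℂ) (ZStar.res K (blockElt b)))

open Classical in
/-- The square sum over the characters of `K` not killing the block. -/
noncomputable def psi (M : Ideal AlgInt) (b : Set (IrrCharacter G)) (K : Subgroup G) (y : G) : ℂ :=
  letI : Fintype K := Fintype.ofFinite K
  letI : Fintype (IrrCharacter K) := @Fintype.ofFinite _ finite_irrCharacter
  if h : y ∈ K then ∑ ξ : IrrCharacter K, if NS M b K ξ then (ξ : K → ℂ) ⟨y, h⟩ * conj ((ξ : K → ℂ) ⟨y, h⟩) else 0
  else 0

include hM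

/-- Induction from a subgroup between the centralizer and the normalizer of a `p`-subgroup. -/
theorem induced_iff_ns {T H : Subgroup G} [Fintype H] (hT : IsPGroup p T) (hTH : T ≤ H)
    (hHN : H ≤ Subgroup.normalizer (T : Set G)) (hCH : Subgroup.centralizer (T : Set G) ≤ H)
    {b : Set (IrrCharacter G)} (hb : IsPBlock M b) (η : IrrCharacter H) :
    IsInducedBlock M H (blockOf M (η : H → ℂ)) b ↔ NS M b H η := by
  classical
  constructor
  · intro h hs
    obtain ⟨χ, hχ⟩ := IsPBlock.nonempty hM hb
    have h1 := omega_res_induced hM h (mem_blockOf_self hM η) hχ (isClassElt_blockElt b) (isIntegralElt_blockElt hM hb)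
    rw [omega_blockElt, if_pos hχ] at h1
    exact not_memLocalIdeal_one hM (by simpa using memLocalIdeal_sub hM hs h1)
  · intro hns
    haveI := Fintype.ofFinite (Subgroup.centralizer (T : Set G))
    haveI : Fintype (ConjClasses H) := Fintype.ofFinite _
    haveI : (T.subgroupOf H).Normal := (Subgroup.normal_subgroupOf_iff_le_normalizer hTH).2 hHN
    haveI := Fintype.ofFinite (T.subgroupOf H)
    haveI := Fintype.ofFinite (Subgroup.centralizer ((T.subgroupOf H : Subgroup H) : Set H))
    have hQ : IsPGroup p (T.subgroupOf H) := hT.of_equiv (Subgroup.subgroupOfEquivOfLe hTH).symm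
    obtain ⟨θ, hθ⟩ := exists_constituent_restrict (Subgroup.centralizer ((T.subgroupOf H : Subgroup H) : Set H)) η
    have hHC : ∀ z : MonoidAlgebra ℂ H, IsClassElt z → IsIntegralElt M z →
        MemLocalIdeal M (omega (η : H → ℂ) z -
          omega (θ : _ → ℂ) (res (Subgroup.centralizer ((T.subgroupOf H : Subgroup H) : Set H)) z)) := by
      intro z hz hzi
      obtain ⟨r, hr⟩ : ∃ r : MonoidAlgebra ℂ H, r = ofFun fun h : H =>
          if h ∈ Subgroup.centralizer ((T.subgroupOf H : Subgroup H) : Set H) then z.coeff h else 0 := ⟨_, rfl⟩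
      have hrc : IsClassElt r := by
        intro x h
        simp only [hr, coeff_ofFun]
        have hn := (inferInstance : (Subgroup.centralizer ((T.subgroupOf H : Subgroup H) : Set H)).Normal)
        exact if_congr ⟨fun k => by simpa [mul_assoc] using hn.conj_mem _ k h⁻¹, fun k => hn.conj_mem _ k h⟩
          (Blocks.coeff_conj hz x h) rfl
      have h1 : MemLocalIdeal M (omega (η : H → ℂ) z - omega (η : H → ℂ) r) := by
        rw [← omega_sub, omega_eq_sum_classes η (hz.sub hrc)]
        refine memLocalIdeal_sum hM _ fun K _ => ?_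
        simp only [MonoidAlgebra.coeff_sub, Finsupp.sub_apply, hr, coeff_ofFun]
        split_ifs with hK
        · rw [sub_self, zero_mul]; exact memLocalIdeal_zero hM
        · rw [sub_zero]
          exact memLocalIdeal_mul_left hM (hzi _) (centralChar_mem_of_notMem_centralizer hM (T.subgroupOf H) hQ η hK)
      rw [omega_eq_res_constituent hrc (fun h hh => by simp only [hr, coeff_ofFun]; exact if_neg hh) η θ hθ] at h1
      have hres : res (Subgroup.centralizer ((T.subgroupOf H : Subgroup H) : Set H)) r =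
          res (Subgroup.centralizer ((T.subgroupOf H : Subgroup H) : Set H)) z := by
        ext k
        rw [coeff_res, coeff_res, hr, coeff_ofFun, if_pos k.2]
      rwa [hres] at h1
    set φ := inclEquiv hTH hCH with hφ
    have hpush : ∀ z : MonoidAlgebra ℂ G,
        omega (θ : _ → ℂ) (res (Subgroup.centralizer ((T.subgroupOf H : Subgroup H) : Set H)) (res H z)) =
          omega (pushChar φ θ : _ → ℂ) (res (Subgroup.centralizer (T : Set G)) z) := by
      intro z
      simp only [omega, coeff_res, pushChar_apply, map_one]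
      congr 1
      refine Fintype.sum_equiv φ.toEquiv _ _ fun k => ?_
      show _ = z.coeff ((φ k : G)) * (θ : _ → ℂ) (φ.symm (φ k))
      rw [MulEquiv.symm_apply_apply]
      rfl
    have h0 := hHC (res H (blockElt b)) (isClassElt_res (isClassElt_blockElt b) H)
      (isIntegralElt_res (isIntegralElt_blockElt hM hb) H)
    rw [hpush] at h0
    have hind : IsInducedBlock M (Subgroup.centralizer (T : Set G)) (blockOf M (pushChar φ θ : _ → ℂ)) b :=
      isInducedBlock_of_not_small hM hT (fun x => Subgroup.mem_centralizer_iff) (isPBlock_blockOf M _) hb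
        (mem_blockOf_self hM _) fun h => hns (by
          show MemLocalIdeal M _
          simpa using memLocalIdeal_add hM h0 h)
    refine ⟨isPBlock_blockOf M η, hb, fun η' hη' χ hχ g => ?_⟩
    have hzc := isClassElt_classElt g
    have hzi := isIntegralElt_classElt hM g
    have h4 := omega_res_induced hM hind (mem_blockOf_self hM _) hχ hzc hzi
    rw [omega_classElt χ.2, ← hpush] at h4
    have h5 := hHC (res H (classElt g)) (isClassElt_res hzc H) (isIntegralElt_res hzi H)
    have h6 := memLocalIdeal_add hM h5 h4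
    rw [sub_add_sub_cancel] at h6
    have h7 := omega_sameBlock hM ((IsPBlock.mem_iff hM (isPBlock_blockOf M η) hη').1 (mem_blockOf_self hM η))
      (isClassElt_res hzc H) (isIntegralElt_res hzi H)
    rw [← omega_res_classElt]
    simpa using memLocalIdeal_add hM h7 h6

/-- The blocks of a chain stabilizer inducing `b`, on a singular element. -/
theorem kernel_local {b : Set (IrrCharacter G)} (hb : IsPBlock M b) {T H : Subgroup G} [Fintype H] (hT : IsPGroup p T)
    (hTH : T ≤ H) (hHN : H ≤ Subgroup.normalizer (T : Set G)) (hCH : Subgroup.centralizer (T : Set G) ≤ H)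
    (U : Set (IrrCharacter H)) (hUdef : U = {ψ | ∃ β : Set (IrrCharacter H), ψ ∈ β ∧ IsInducedBlock M H β b})
    {x y : G} (hxp : ∃ k : ℕ, orderOf x = p ^ k) (hc : Commute x y) (hyr : ¬ p ∣ orderOf y) (hxH : x ∈ H) (hyH : y ∈ H) :
    blockKernel U (⟨x, hxH⟩ * ⟨y, hyH⟩) (⟨x, hxH⟩ * ⟨y, hyH⟩) =
      psi M b (H ⊓ Subgroup.centralizer ({x} : Set G)) y := by
  classical
  set x' : H := ⟨x, hxH⟩ with hx'
  set C := Subgroup.centralizer ({x'} : Set H) with hC
  set K := H ⊓ Subgroup.centralizer ({x} : Set G) with hK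
  letI : Fintype C := Fintype.ofFinite C
  letI : Fintype K := Fintype.ofFinite K
  letI : Fintype (IrrCharacter C) := @Fintype.ofFinite _ finite_irrCharacter
  letI : Fintype (IrrCharacter K) := @Fintype.ofFinite _ finite_irrCharacter
  let φ : C ≃* K :=
    { toFun := fun c => ⟨((c : H) : G), (c : H).2, Subgroup.mem_centralizer_singleton_iff.2
        (congrArg Subtype.val (Subgroup.mem_centralizer_singleton_iff.1 c.2))⟩
      invFun := fun k => ⟨⟨k, k.2.1⟩, Subgroup.mem_centralizer_singleton_iff.2
        (Subtype.ext (Subgroup.mem_centralizer_singleton_iff.1 k.2.2))⟩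
      left_inv := fun _ => rfl
      right_inv := fun _ => rfl
      map_mul' := fun _ _ => rfl }
  have hUb : ∀ f, IsPBlock M f → ∀ χ ∈ f, χ ∈ U → f ⊆ U := by
    intro f hf χ hχ hχU ψ hψ
    rw [hUdef] at hχU ⊢
    obtain ⟨β, hχβ, hβ⟩ := hχU
    obtain rfl := IsPBlock.eq_of_mem hM hf hβ.1 hχ hχβ
    exact ⟨f, hψ, hβ⟩
  have hxp' : ∃ k : ℕ, orderOf x' = p ^ k := by
    obtain ⟨k, hk⟩ := hxp
    exact ⟨k, by rw [hx', Subgroup.orderOf_mk, hk]⟩
  have hw : ∀ ξ : IrrCharacter C, ∀ f, IsInducedBlock M C (blockOf M (ξ : C → ℂ)) f →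
      (NS M b K (pushChar φ ξ) ↔ f ⊆ U) := by
    intro ξ f hind
    obtain ⟨η, hη⟩ := IsPBlock.nonempty hM hind.2.1
    have hωeq : omega (pushChar φ ξ : K → ℂ) (res K (blockElt b)) =
        omega (ξ : C → ℂ) (res C (res H (blockElt b))) := by
      simp only [omega, coeff_res, pushChar_apply, map_one]
      congr 1
      exact (Fintype.sum_equiv φ.toEquiv _ _ fun c => by
        show (blockElt b).coeff ((c : H) : G) * _ = (blockElt b).coeff ((φ c : K) : G) * (ξ : C → ℂ) (φ.symm (φ c))
        rw [MulEquiv.symm_apply_apply]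
        rfl).symm
    have h1 := omega_res_induced hM hind (mem_blockOf_self hM ξ) hη (isClassElt_res (isClassElt_blockElt b) H)
      (isIntegralElt_res (isIntegralElt_blockElt hM hb) H)
    have hns : NS M b K (pushChar φ ξ) ↔ NS M b H η := by
      rw [NS, NS, hωeq]
      exact not_congr ⟨fun h => by simpa using memLocalIdeal_sub hM h h1,
        fun h => by simpa using memLocalIdeal_add hM h1 h⟩
    rw [hns, ← induced_iff_ns hM hT hTH hHN hCH hb η, ← IsPBlock.eq_blockOf hM hind.2.1 hη]
    constructor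
    · intro h ψ hψ
      rw [hUdef]
      exact ⟨f, hψ, h⟩
    · intro h
      have h2 := h hη
      rw [hUdef] at h2
      obtain ⟨β, hηβ, hβ⟩ := h2
      rwa [IsPBlock.eq_of_mem hM hind.2.1 hβ.1 hη hηβ]
  have hyC : (⟨y, hyH⟩ : H) ∈ C := Subgroup.mem_centralizer_singleton_iff.2 (Subtype.ext hc.eq.symm)
  have h := kernel_section hM U hUb hxp' (fun ξ => NS M b K (pushChar φ ξ)) hw (y := ⟨⟨y, hyH⟩, hyC⟩)
    (by rwa [Subgroup.orderOf_mk, Subgroup.orderOf_mk])
  refine h.trans ?_
  have hyK : y ∈ K := ⟨hyH, Subgroup.mem_centralizer_singleton_iff.2 hc.eq.symm⟩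
  rw [psi, dif_pos hyK]
  refine Finset.sum_bij' (fun ξ _ => pushChar φ ξ) (fun ξ _ => pushChar φ.symm ξ) (fun _ _ => Finset.mem_univ _)
    (fun _ _ => Finset.mem_univ _) (fun ξ _ => pushChar_symm' φ ξ) (fun ξ _ => pushChar_symm φ ξ) (fun ξ _ => ?_)
  exact if_congr Iff.rfl rfl rfl

/-- The block itself on a singular element. -/
theorem kernel_global {b : Set (IrrCharacter G)} (hb : IsPBlock M b) {x y : G} (hxp : ∃ k : ℕ, orderOf x = p ^ k)
    (hc : Commute x y) (hyr : ¬ p ∣ orderOf y) :
    blockKernel b (x * y) (x * y) = psi M b (Subgroup.centralizer ({x} : Set G)) y := by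
  classical
  set C := Subgroup.centralizer ({x} : Set G) with hC
  letI : Fintype C := Fintype.ofFinite C
  letI : Fintype (IrrCharacter C) := @Fintype.ofFinite _ finite_irrCharacter
  have hUb : ∀ f, IsPBlock M f → ∀ χ ∈ f, χ ∈ b → f ⊆ b := fun f hf χ hχ hχb =>
    (IsPBlock.eq_of_mem hM hf hb hχ hχb).subset
  have hH : ∀ g, g ∈ C ↔ ∀ q ∈ Subgroup.zpowers x, q * g = g * q := fun g => by
    rw [hC, ← Subgroup.centralizer_closure, ← Subgroup.zpowers_eq_closure]
    exact Subgroup.mem_centralizer_iff
  have hw : ∀ ξ : IrrCharacter C, ∀ f, IsInducedBlock M C (blockOf M (ξ : C → ℂ)) f → (NS M b C ξ ↔ f ⊆ b) := by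
    intro ξ f hind
    constructor
    · intro hns
      have h' := isInducedBlock_of_not_small hM (ZStar.isPGroup_zpowers hM.1 hxp) hH (isPBlock_blockOf M ξ) hb
        (mem_blockOf_self hM ξ) hns
      exact (induced_block_unique hM hind h').subset
    · intro hfb hs
      obtain ⟨χ, hχ⟩ := IsPBlock.nonempty hM hind.2.1
      have h1 := omega_res_induced hM hind (mem_blockOf_self hM ξ) hχ (isClassElt_blockElt b) (isIntegralElt_blockElt hM hb)
      rw [omega_blockElt, if_pos (hfb hχ)] at h1
      exact not_memLocalIdeal_one hM (by simpa using memLocalIdeal_sub hM hs h1)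
  have hyC : y ∈ C := Subgroup.mem_centralizer_singleton_iff.2 hc.eq.symm
  have h := kernel_section hM b hUb hxp (fun ξ => NS M b C ξ) hw (y := ⟨y, hyC⟩) (by rwa [Subgroup.orderOf_mk])
  refine h.trans ?_
  rw [psi, dif_pos hyC]

open Classical in
/-- The alternating sum over the chains. -/
theorem alternating_sum {b : Set (IrrCharacter G)} (hb : IsPBlock M b) (S : Finset (Finset (Subgroup G)))
    (hS : ∀ s, s ∈ S ↔ IsNormalChain p s) (U : ∀ s : Finset (Subgroup G), Set (IrrCharacter (chainStab s)))
    (hUdef : ∀ s, U s = {ψ | ∃ β : Set (IrrCharacter (chainStab s)), ψ ∈ β ∧ IsInducedBlock M (chainStab s) β b}) :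
    (Nat.card G : ℂ) * ((Nat.card b : ℂ) - (blockRank p b : ℂ)) =
      ∑ s ∈ S, sgn s * ((Nat.card (chainStab s) : ℂ) * ((Nat.card (U s) : ℂ) - (blockRank p (U s) : ℂ))) := by
  haveI : Fact p.Prime := ⟨hM.1⟩
  choose xx yy hxy hcm hxp hyr hxz hyz using ZStar.exists_pPart hM.1 (G := G)
  have hlhs : (Nat.card G : ℂ) * ((Nat.card b : ℂ) - (blockRank p b : ℂ)) =
      ∑ g : G, if p ∣ orderOf g then psi M b (Subgroup.centralizer ({xx g} : Set G)) (yy g) else 0 := by
    rw [← sum_kernel_singular hM b fun f hf χ hχ hχb => (IsPBlock.eq_of_mem hM hf hb hχ hχb).subset]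
    refine Finset.sum_congr rfl fun g _ => ?_
    split_ifs
    · rw [← kernel_global hM hb (hxp g) (hcm g) (hyr g), hxy g]
    · rfl
  have hrhs : ∀ s ∈ S, (Nat.card (chainStab s) : ℂ) * ((Nat.card (U s) : ℂ) - (blockRank p (U s) : ℂ)) =
      ∑ g : G, if p ∣ orderOf g ∧ xx g ∈ chainStab s then
        psi M b (chainStab s ⊓ Subgroup.centralizer ({xx g} : Set G)) (yy g) else 0 := by
    intro s hs
    obtain ⟨-, -, hmem, T, hT, hTop⟩ := (hS s).1 hs
    set H := chainStab s with hHdef
    letI : Fintype H := Fintype.ofFinite H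
    have hTH : T ≤ H := fun t ht => mem_chainStab.2 fun Q hQ => (hTop Q hQ).2 ht
    have hHN : H ≤ Subgroup.normalizer (T : Set G) := fun h hh => mem_chainStab.1 hh T hT
    have hCH : Subgroup.centralizer (T : Set G) ≤ H := fun h hh => mem_chainStab.2 fun Q hQ =>
      (Subgroup.centralizer_le_normalizer (s := (Q : Set G))) (Subgroup.centralizer_le (hTop Q hQ).1 hh)
    have hUb : ∀ f, IsPBlock M f → ∀ χ ∈ f, χ ∈ U s → f ⊆ U s := by
      intro f hf χ hχ hχU ψ hψ
      rw [hUdef] at hχU ⊢
      obtain ⟨β, hχβ, hβ⟩ := hχU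
      obtain rfl := IsPBlock.eq_of_mem hM hf hβ.1 hχ hχβ
      exact ⟨f, hψ, hβ⟩
    rw [← sum_kernel_singular hM (U s) hUb]
    have hzero : ∀ g : G, g ∉ H → (if p ∣ orderOf g ∧ xx g ∈ H then
        psi M b (H ⊓ Subgroup.centralizer ({xx g} : Set G)) (yy g) else 0) = 0 := by
      intro g hg
      split_ifs with h
      · rw [psi, dif_neg]
        intro hy
        exact hg (hxy g ▸ H.mul_mem h.2 hy.1)
      · rfl
    symm
    rw [← Finset.sum_subset (Finset.subset_univ (Finset.univ.filter (· ∈ H)))
        (fun g _ hg => hzero g (by simpa using hg)),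
      Finset.sum_subtype (p := (· ∈ H)) (Finset.univ.filter (· ∈ H)) (by simp)]
    refine Finset.sum_congr rfl fun h _ => ?_
    have hxH : xx h ∈ H := (Subgroup.zpowers_le.2 h.2) (hxz h)
    have hyH : yy h ∈ H := (Subgroup.zpowers_le.2 h.2) (hyz h)
    rw [Subgroup.orderOf_coe]
    by_cases hd : p ∣ orderOf h
    · rw [if_pos ⟨hd, hxH⟩, if_pos hd, ← kernel_local hM hb (hmem T hT).2 hTH hHN hCH (U s) (hUdef s) (hxp h) (hcm h) (hyr h) hxH hyH,
        show (⟨xx h, hxH⟩ * ⟨yy h, hyH⟩ : H) = h from Subtype.ext (hxy h)]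
    · rw [if_neg (fun h' => hd h'.1), if_neg hd]
  rw [hlhs, Finset.sum_congr rfl (fun s hs => congrArg (fun c => sgn s * c) (hrhs s hs))]
  simp only [Finset.mul_sum]
  rw [Finset.sum_comm (s := S)]
  refine Finset.sum_congr rfl fun g _ => ?_
  by_cases hd : p ∣ orderOf g
  · have hx1 : xx g ≠ 1 := fun h => hyr g (by
      have := hxy g
      rw [h, one_mul] at this
      rwa [this])
    rw [if_pos hd, ← sum_chains (hxp g) hx1 (fun K => psi M b K (yy g)) (S.filter fun s => xx g ∈ chainStab s)
      (fun s => by rw [Finset.mem_filter, hS]), Finset.sum_filter]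
    exact Finset.sum_congr rfl fun s _ => by simp only [hd, true_and, mul_ite, mul_zero]
  · rw [if_neg hd]
    exact (Finset.sum_eq_zero fun s _ => by rw [if_neg fun h => hd h.1, mul_zero]).symm

end CfsgLib.Chains
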